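import Cfsg.Agent.HarrisRank.Local

/-! Harris's lemma: the sectional rank bound. -/

set_option autoImplicit false

namespace CfsgLib.HarrisRank

variable {P : Type*} [Group P] [Finite P]

/-- Bound from small order: subgroups of index at most two meet `B`. -/
theorem sectFour_of_small (hP : IsPGroup 2 P) {T B : Subgroup P} (h : Setup T B)
    (h16 : Nat.card T ≤ 16) (hcard : Nat.card P ≤ 128)
    (hE : Nat.card P = 128 → ∀ E : Subgroup P, (∀ e ∈ E, e * e = 1) → Nat.card E ≠ 32) :
    SectFour P := by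
  haveI := Fact.mk Nat.prime_two
  intro H N hN hsq
  obtain ⟨a, ha⟩ := IsPGroup.iff_card.1 hP
  obtain ⟨b, hb⟩ := IsPGroup.iff_card.1 (hP.to_subgroup H)
  have hi := H.card_mul_index
  have ha7 : a ≤ 7 := by
    have : (2 : ℕ) ^ a ≤ 2 ^ 7 := by rw [← ha]; simpa using hcard
    exact (Nat.pow_le_pow_iff_right (by norm_num)).1 this
  by_cases h2 : H.index ≤ 2
  · obtain ⟨e, heB, heH, he1⟩ := h.exists_b (Z := ⊤) le_top (H := H) (by
      rw [Subgroup.relIndex_top_right]; omega)
    refine (index_le_centralizer N hsq (⟨e, heH⟩ : H)).trans ((le_of_eq ?_).trans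
      ((Subgroup.card_le_of_le (K := T) (show (Subgroup.centralizer ({(⟨e, heH⟩ : H)} : Set H)).map H.subtype ≤ T
        from ?_)).trans h16))
    · exact (Subgroup.card_map_of_injective H.subtype_injective).symm
    · rintro _ ⟨x, hx, rfl⟩
      rw [← h.cent e heB he1, Subgroup.mem_centralizer_singleton_iff]
      exact congrArg Subtype.val (Subgroup.mem_centralizer_singleton_iff.1 hx)
  by_cases hb4 : b ≤ 4
  · refine le_trans (Nat.le_of_dvd Nat.card_pos N.index_dvd_card) ?_
    rw [hb]
    exact Nat.pow_le_pow_right (by norm_num) hb4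
  -- now `|H| = 32` and `|P| = 128`
  have hab : (2 : ℕ) ^ b * 4 ≤ 2 ^ a := by
    rw [← ha, ← hi, ← hb]
    refine Nat.mul_le_mul_left _ ?_
    obtain ⟨k, hk⟩ := exists_pow_relIndex hP H ⊤
    rw [Subgroup.relIndex_top_right] at hk
    rw [hk] at h2 ⊢
    rcases k with _ | _ | k
    · norm_num at h2
    · norm_num at h2
    · rw [pow_succ, pow_succ]; have := Nat.one_le_two_pow (n := k); omega
  have hb5 : b + 2 ≤ a := by
    rw [show (4 : ℕ) = 2 ^ 2 by norm_num, ← pow_add] at hab
    exact (Nat.pow_le_pow_iff_right (by norm_num)).1 hab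
  obtain rfl : b = 5 := by omega
  obtain rfl : a = 7 := by omega
  by_contra hgt
  have hN1 : N = ⊥ := by
    have h1 : Nat.card N * N.index = 32 := by rw [N.card_mul_index, hb]; norm_num
    apply Subgroup.eq_bot_of_card_eq
    have := Nat.card_pos (α := N)
    by_contra hne1
    have h34 : 2 * 17 ≤ Nat.card N * N.index := Nat.mul_le_mul (by omega) (by omega)
    omega
  refine hE (by rw [ha]; norm_num) H (fun e he => ?_) (by rw [hb]; norm_num)
  have := hsq ⟨e, he⟩
  rw [hN1, Subgroup.mem_bot] at this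
  exact congrArg Subtype.val this

/-- The four-group `B` with a dihedral partner: `T` has a cyclic subgroup of index at most eight. -/
theorem sectFour_of_cyclic {T : Subgroup P} (hT : T = ⊤) {C : Subgroup P}
    (hC : IsCyclic C) (hindex : C.relIndex T ≤ 8) : SectFour P := by
  subst hT
  rw [Subgroup.relIndex_top_right] at hindex
  intro H N hN hsq
  let π := QuotientGroup.mk' N
  let K := C.subgroupOf H
  have hK : IsCyclic K :=
    isCyclic_of_injective (f := ((H.subtype.comp K.subtype).codRestrict C fun k => k.2))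
      (fun a b e => Subtype.ext (Subtype.ext (congrArg (fun x : C => (x : P)) e)))
  have h1 : K.index ≤ 8 :=
    le_trans (le_trans (Subgroup.relIndex_le_of_le_right (le_top : H ≤ ⊤) Subgroup.index_ne_zero_of_finite)
      (le_of_eq (Subgroup.relIndex_top_right C))) hindex
  have hcyc : IsCyclic (K.map π) :=
    isCyclic_of_surjective (π.subgroupMap K) (π.subgroupMap_surjective K)
  have h2 : Nat.card (K.map π) ≤ 2 := by
    rw [← IsCyclic.exponent_eq_card]
    refine Nat.le_of_dvd (by norm_num) (Monoid.exponent_dvd_of_forall_pow_eq_one fun x => ?_)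
    exact Subtype.ext (by rw [pow_two]; exact sq_quot N hsq x)
  have h3 : (K.map π).index ≤ K.index :=
    Nat.le_of_dvd (Nat.pos_of_ne_zero Subgroup.index_ne_zero_of_finite)
      (Subgroup.index_map_dvd K (QuotientGroup.mk'_surjective N))
  have h4 := (K.map π).card_mul_index
  rw [show Nat.card (H ⧸ N) = N.index from rfl] at h4
  rw [← h4]
  calc _ ≤ 2 * 8 := Nat.mul_le_mul h2 (h3.trans h1)
    _ = 16 := by norm_num

/-- Harris's lemma, nonabelian `T`. -/
theorem sectFour_nonabelian (hP : IsPGroup 2 P) {T B : Subgroup P} (h : Setup T B) {C : Subgroup P}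
    (hC : IsCyclic C) (hCT : C ≤ T) (hindex : C.relIndex T ≤ 8)
    (hBc : ∀ b ∈ B, ∀ u ∈ T, u * b = b * u) (z : P) (hzT : z ∈ T) (hz2 : z * z = 1) (hzB : z ∉ B)
    (hzc : ∀ u ∈ T, u * z = z * u) (hna : ∃ u ∈ T, ∃ v ∈ T, u * v ≠ v * u) : SectFour P := by
  refine sectFour_of_cyclic ?_ hC hindex
  by_contra hne
  obtain ⟨s, hsN, hsT, hs2, -⟩ := exists_central_mod hP T hne
  -- the central elements of `T` of order at most two
  let Z : Subgroup P :=
    { carrier := {v | v ∈ T ∧ v * v = 1 ∧ ∀ u ∈ T, u * v = v * u}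
      one_mem' := ⟨one_mem T, one_mul 1, fun u _ => by rw [mul_one, one_mul]⟩
      mul_mem' := by
        rintro a b ⟨ha, ha2, hac⟩ ⟨hb, hb2, hbc⟩
        refine ⟨mul_mem ha hb, ?_, fun u hu => ?_⟩
        · rw [show a * b * (a * b) = a * (b * a) * b by group, hac b hb,
            show a * (a * b) * b = a * a * (b * b) by group, ha2, hb2, mul_one]
        · rw [← mul_assoc, hac u hu, mul_assoc, hbc u hu, ← mul_assoc]
      inv_mem' := by
        rintro a ⟨ha, ha2, hac⟩
        rw [inv_eq_of_mul_eq_one_right ha2]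
        exact ⟨ha, ha2, hac⟩ }
  have hBZ : B ≤ Z := fun b hb => ⟨h.le hb, h.sq_B b hb, hBc b hb⟩
  have hZT : Z ≤ T := fun v hv => hv.1
  have hsZ : ∀ v ∈ Z, s * v * s⁻¹ ∈ Z := by
    rintro v ⟨hv, hv2, hvc⟩
    refine ⟨(Subgroup.mem_normalizer_iff.1 hsN v).1 hv, ?_, fun u hu => ?_⟩
    · rw [show s * v * s⁻¹ * (s * v * s⁻¹) = s * (v * v) * s⁻¹ by group, hv2]; group
    · have : s⁻¹ * u * s ∈ T := by
        refine (Subgroup.mem_normalizer_iff.1 hsN _).2 ?_
        rwa [show s * (s⁻¹ * u * s) * s⁻¹ = u by group]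
      calc u * (s * v * s⁻¹) = s * ((s⁻¹ * u * s) * v) * s⁻¹ := by group
        _ = s * v * s⁻¹ * u := by rw [hvc _ this]; group
  obtain ⟨hge, -⟩ := h.card_fix hBZ hZT (fun v hv => hv.2.1) hsT hsZ hs2 fun v hv u hu => hv.2.2 u hu
  -- hence `T = Z C` is abelian
  have h1 : Nat.card ↥(C ⊓ Z) ≤ 2 := by
    haveI : IsCyclic ↥(C ⊓ Z) :=
      isCyclic_of_injective (f := Subgroup.inclusion (inf_le_left : C ⊓ Z ≤ C))
        (Subgroup.inclusion_injective _)
    rw [← IsCyclic.exponent_eq_card]
    exact Nat.le_of_dvd (by norm_num)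
      (Monoid.exponent_dvd_of_forall_pow_eq_one fun x => Subtype.ext (by rw [pow_two]; exact x.2.2.2.1))
  have h2 : Nat.card ↥(C ⊓ Z) * C.relIndex Z = Nat.card Z := by
    rw [← Subgroup.inf_relIndex_right, ← Subgroup.relIndex_bot_left, ← Subgroup.relIndex_bot_left]
    exact Subgroup.relIndex_mul_relIndex _ _ _ bot_le inf_le_right
  have h3 : C.relIndex Z ≤ C.relIndex (Z ⊔ C) :=
    Subgroup.relIndex_le_of_le_right le_sup_left Subgroup.index_ne_zero_of_finite
  have h4 : C.relIndex (Z ⊔ C) * (Z ⊔ C).relIndex T = C.relIndex T :=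
    Subgroup.relIndex_mul_relIndex _ _ _ le_sup_right (sup_le hZT hCT)
  have h5 : 8 ≤ C.relIndex Z := by
    have := Nat.mul_le_mul_right (C.relIndex Z) h1
    omega
  have h6 : (Z ⊔ C).relIndex T = 1 := by
    have h0 : (Z ⊔ C).relIndex T ≠ 0 := Subgroup.index_ne_zero_of_finite
    by_contra hne1
    have := Nat.mul_le_mul (h5.trans h3) (show 2 ≤ (Z ⊔ C).relIndex T by omega)
    omega
  have hab : IsMulCommutative ↥(Subgroup.closure ((Z : Set P) ∪ C)) := by
    refine Subgroup.isMulCommutative_closure fun a ha b hb => ?_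
    rcases ha with ha | ha <;> rcases hb with hb | hb
    · exact hb.2.2 a ha.1
    · exact (ha.2.2 b (hCT hb)).symm
    · exact hb.2.2 a (hCT ha)
    · obtain ⟨g, hg⟩ := hC.exists_generator
      obtain ⟨i, hi⟩ := Subgroup.mem_zpowers_iff.1 (hg ⟨a, ha⟩)
      obtain ⟨j, hj⟩ := Subgroup.mem_zpowers_iff.1 (hg ⟨b, hb⟩)
      exact congrArg Subtype.val (show (⟨a, ha⟩ : C) * ⟨b, hb⟩ = ⟨b, hb⟩ * ⟨a, ha⟩ by
        rw [← hi, ← hj]; exact zpow_mul_comm g i j)
  obtain ⟨u, hu, v, hv, huv⟩ := hna
  apply huv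
  have hle : T ≤ Subgroup.closure ((Z : Set P) ∪ C) := by
    rw [Subgroup.closure_union, Subgroup.closure_eq, Subgroup.closure_eq]
    exact Subgroup.relIndex_eq_one.1 h6
  exact congrArg Subtype.val (hab.is_comm.comm ⟨u, hle hu⟩ ⟨v, hle hv⟩)

/-- Harris's lemma, elementary abelian `T` of order 16. -/
theorem sectFour_elementary (hP : IsPGroup 2 P) {T B : Subgroup P} (h : Setup T B)
    (h16 : Nat.card T = 16) (hT2 : ∀ v ∈ T, v * v = 1) : SectFour P := by
  haveI := Fact.mk Nat.prime_two
  haveI : Group.IsNilpotent P := hP.isNilpotent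
  have hnc : NormalizerCondition P := Group.normalizerCondition_of_isNilpotent
  by_cases htop : T = ⊤
  · refine sectFour_of_small hP h h16.le (by rw [← Subgroup.card_top, ← htop, h16]; norm_num) ?_
    intro h128
    rw [← Subgroup.card_top, ← htop, h16] at h128
    norm_num at h128
  obtain ⟨F, L, fr⟩ := exists_frame hP h h16 hT2 htop
  set N := Subgroup.normalizer (T : Set P) with hNdef
  have hcard : ∀ {X Y : Subgroup P}, X ≤ Y → Nat.card X * X.relIndex Y = Nat.card Y := fun {X Y} hXY => by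
    rw [← Subgroup.relIndex_bot_left, ← Subgroup.relIndex_bot_left]
    exact Subgroup.relIndex_mul_relIndex _ _ _ bot_le hXY
  have hL64 : Nat.card L ≤ 64 := by
    rw [← hcard fr.T_le, h16]
    have := fr.index_L
    omega
  have hN64 : Nat.card N ≤ 64 := by
    by_cases hLN : L = N
    · exact hLN ▸ hL64
    · rw [← hcard fr.L_le, ← hcard fr.T_le, h16]
      calc _ ≤ 16 * 2 * 2 := Nat.mul_le_mul (Nat.mul_le_mul_left _ (fr.dichotomy hLN)) fr.index_N
        _ = 64 := by norm_num
  have hconjle : ∀ (X Y : Subgroup P) (g : P), g ∈ Subgroup.normalizer (X : Set P) → Y ≤ X →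
      Y.map (MulAut.conj g).toMonoidHom ≤ X := by
    rintro X Y g hg hYX _ ⟨y, hy, rfl⟩
    exact (Subgroup.mem_normalizer_iff.1 hg y).1 (hYX hy)
  have hnorm : ∀ (g : P) (X : Subgroup P), X.map (MulAut.conj g).toMonoidHom = X →
      g ∈ Subgroup.normalizer (X : Set P) := fun g X e => Subgroup.mem_normalizer_iff.2 fun x => by
    constructor
    · intro hx; rw [← e]; exact ⟨x, hx, rfl⟩
    · intro hx
      rw [← e] at hx
      obtain ⟨y, hy, hye⟩ := hx
      exact (MulAut.conj g).injective hye ▸ hy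
  by_cases hA : ∃ A : Subgroup P, A ≤ N ∧ (∀ a ∈ A, a * a = 1) ∧ Nat.card A = 16 ∧ A ≠ T
  swap
  · -- `T` is characteristic in its normalizer, which is everything
    push Not at hA
    have hN : N = ⊤ := by
      by_contra hne
      obtain ⟨g, hg, hgN⟩ := SetLike.exists_of_lt (hnc N (lt_top_iff_ne_top.2 hne))
      refine hgN (hnorm g T (hA _ (hconjle N T g hg Subgroup.le_normalizer) ?_ ?_))
      · rintro _ ⟨y, hy, rfl⟩
        rw [← map_mul, hT2 y hy, map_one]
      · rw [Subgroup.card_map_of_injective (MulAut.conj g).injective, h16]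
    rw [hN, Subgroup.card_top] at hN64
    exact sectFour_of_small hP h h16.le (by omega) fun h128 => by omega
  obtain ⟨A, hAN, hA2, hA16, hAT⟩ := hA
  have hAL : A ≤ L := fun a ha => (fr.mem_iff a (hAN ha)).2 (by rw [hA2 a ha]; exact one_mem T)
  have hATle : A ⊓ T ≤ F := fun v hv => by
    obtain ⟨a, ha, haT⟩ : ∃ a ∈ A, a ∉ T := by
      by_contra hall
      push Not at hall
      exact hAT (Subgroup.eq_of_le_of_card_ge hall (by omega))
    rw [← fr.fix a (hAL ha) haT]
    refine ⟨hv.2, Subgroup.mem_centralizer_singleton_iff.2 ?_⟩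
    exact congrArg Subtype.val
      (comm_of_sq (H := A) (fun q => Subtype.ext (hA2 q q.2)) ⟨v, hv.1⟩ ⟨a, ha⟩)
  have hAT4 : Nat.card ↥(A ⊓ T) ≤ 4 := fr.card_F ▸ Subgroup.card_le_of_le hATle
  have hidx : 4 ≤ T.relIndex A := by
    have := hcard (inf_le_left : A ⊓ T ≤ A)
    rw [Subgroup.inf_relIndex_left, hA16] at this
    nlinarith
  have hTA : T.relIndex (A ⊔ T) ≤ T.relIndex L :=
    Subgroup.relIndex_le_of_le_right (sup_le hAL fr.T_le) Subgroup.index_ne_zero_of_finite
  have hTA' : T.relIndex A ≤ T.relIndex (A ⊔ T) :=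
    Subgroup.relIndex_le_of_le_right le_sup_left Subgroup.index_ne_zero_of_finite
  have hL4 : T.relIndex L = 4 := le_antisymm fr.index_L (hidx.trans (hTA'.trans hTA))
  have hLN : L = N := by
    by_contra hne
    have := fr.dichotomy hne
    omega
  have hsup : A ⊔ T = L := by
    have h1 := hcard (le_sup_right : T ≤ A ⊔ T)
    have h2 := hcard fr.T_le
    refine Subgroup.eq_of_le_of_card_ge (sup_le hAL fr.T_le) ?_
    rw [← h1, ← h2]
    exact Nat.mul_le_mul_left _ (fr.index_L.trans (hidx.trans hTA'))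
  have hFA : F ≤ A := by
    have := hcard (inf_le_left : A ⊓ T ≤ A)
    rw [Subgroup.inf_relIndex_left, hA16] at this
    have h4 : T.relIndex A = 4 := le_antisymm (hTA'.trans (hTA.trans fr.index_L)) hidx
    rw [h4] at this
    exact (Subgroup.eq_of_le_of_card_ge hATle (by rw [fr.card_F]; omega)).symm.le.trans inf_le_left
  -- every involution of `L` lies in `T` or in `A`
  have hinv : ∀ e ∈ L, e * e = 1 → e ∈ T ∨ e ∈ A := fun e he he2 => by
    have hset := Subgroup.coe_mul_of_left_le_normalizer_right A T hAN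
    rw [← hsup, ← SetLike.mem_coe, hset] at he
    obtain ⟨a, ha, v, hv, rfl⟩ := he
    by_cases haT : a ∈ T
    · exact Or.inl (mul_mem haT hv)
    refine Or.inr (mul_mem ha (hFA ?_))
    rw [← fr.fix a (hAL ha) haT]
    refine ⟨hv, Subgroup.mem_centralizer_singleton_iff.2 ?_⟩
    have e1 : (a * v) * (a * v) = 1 := he2
    have e2 : v * a * v = a := by
      have := congrArg (fun z => a * z) e1
      simp only [mul_one] at this
      rw [show a * (a * v * (a * v)) = a * a * (v * a * v) by group, hA2 a ha, one_mul] at this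
      exact this
    calc v * a = v * a * v * v := by rw [mul_assoc (v * a) v v, hT2 v hv, mul_one]
      _ = a * v := by rw [e2]
  have hclass : ∀ E : Subgroup P, E ≤ L → (∀ e ∈ E, e * e = 1) → E ≤ T ∨ E ≤ A := fun E hE hE2 =>
    le_or_le_of_union fun e he => hinv e (hE he) (hE2 e he)
  set M := Subgroup.normalizer (L : Set P) with hMdef
  have hperm : ∀ g ∈ M, g ∉ L → T.map (MulAut.conj g).toMonoidHom = A ∧
      A.map (MulAut.conj g).toMonoidHom = T := by
    intro g hg hgL
    have hsq : ∀ X : Subgroup P, (∀ x ∈ X, x * x = 1) →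
        ∀ x ∈ X.map (MulAut.conj g).toMonoidHom, x * x = 1 := by
      rintro X hX _ ⟨y, hy, rfl⟩
      rw [← map_mul, hX y hy, map_one]
    have key : ∀ X : Subgroup P, X ≤ L → (∀ x ∈ X, x * x = 1) → Nat.card X = 16 →
        X.map (MulAut.conj g).toMonoidHom = T ∨ X.map (MulAut.conj g).toMonoidHom = A := by
      intro X hX hX2 hX16
      have hc16 : Nat.card ↥(X.map (MulAut.conj g).toMonoidHom) = 16 := by
        rw [Subgroup.card_map_of_injective (MulAut.conj g).injective, hX16]
      rcases hclass _ (hconjle L X g hg hX) (hsq X hX2) with h1 | h1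
      · exact Or.inl (Subgroup.eq_of_le_of_card_ge h1 (by omega))
      · exact Or.inr (Subgroup.eq_of_le_of_card_ge h1 (by omega))
    have h1 : T.map (MulAut.conj g).toMonoidHom = A :=
      (key T fr.T_le hT2 h16).resolve_left fun e => hgL (hLN ▸ hnorm g T e)
    refine ⟨h1, (key A hAL hA2 hA16).resolve_right fun e => hAT ?_⟩
    rw [← h1] at e
    exact (Subgroup.map_injective (MulAut.conj g).injective) (by rw [h1] at e ⊢; exact e)
  have hMidx : L.relIndex M ≤ 2 := by
    by_contra h3
    have hcard2 : 2 < Nat.card (↥M ⧸ L.subgroupOf M) := not_le.1 h3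
    classical
    haveI := Fintype.ofFinite (↥M ⧸ L.subgroupOf M)
    rw [Nat.card_eq_fintype_card] at hcard2
    have : 1 < ((Finset.univ : Finset (↥M ⧸ L.subgroupOf M)).erase ((1 : M) : ↥M ⧸ L.subgroupOf M)).card := by
      rw [Finset.card_erase_of_mem (Finset.mem_univ _), Finset.card_univ]; omega
    obtain ⟨x, hx, y, hy, hxy⟩ := Finset.one_lt_card.1 this
    obtain ⟨a, rfl⟩ := QuotientGroup.mk_surjective x
    obtain ⟨b, rfl⟩ := QuotientGroup.mk_surjective y
    have hnot : ∀ c : M, ((c : ↥M ⧸ L.subgroupOf M)) ≠ ((1 : M) : ↥M ⧸ L.subgroupOf M) → (c : P) ∉ L :=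
      fun c hc e => hc (QuotientGroup.eq.2 (by simpa [Subgroup.mem_subgroupOf] using e))
    refine hxy (QuotientGroup.eq.2 (Subgroup.mem_subgroupOf.2 ?_))
    simp only [Subgroup.coe_mul, Subgroup.coe_inv]
    rw [hLN]
    refine hnorm _ T ?_
    have ea := (hperm a a.2 (hnot a (Finset.ne_of_mem_erase hx))).1
    have eb := (hperm b b.2 (hnot b (Finset.ne_of_mem_erase hy))).1
    ext z
    constructor
    · rintro ⟨w, hw, rfl⟩
      have : MulAut.conj (b : P) w ∈ A := eb ▸ ⟨w, hw, rfl⟩
      rw [← ea] at this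
      obtain ⟨w', hw', hww⟩ := this
      have : MulAut.conj ((a : P)⁻¹ * b) w = w' := by
        rw [map_mul, MulAut.mul_apply, ← hww]
        simp
        group
      show MulAut.conj ((a : P)⁻¹ * b) w ∈ T
      rwa [this]
    · intro hz
      have : MulAut.conj (a : P) z ∈ A := ea ▸ ⟨z, hz, rfl⟩
      rw [← eb] at this
      obtain ⟨w, hw, hww⟩ := this
      refine ⟨w, hw, ?_⟩
      show MulAut.conj ((a : P)⁻¹ * b) w = z
      rw [map_mul, MulAut.mul_apply]
      erw [hww]
      simp
      group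
  -- elementary subgroups of order at least 16 in `M` lie in `L`
  have hbig : ∀ E : Subgroup P, E ≤ M → (∀ e ∈ E, e * e = 1) → 16 ≤ Nat.card E → E ≤ L := by
    intro E hEM hE2 hE16
    by_contra hEL
    obtain ⟨u, huE, huL⟩ := SetLike.not_le_iff_exists.1 hEL
    have h8 : 8 ≤ Nat.card ↥(E ⊓ L) := by
      have h1 := hcard (inf_le_left : E ⊓ L ≤ E)
      rw [Subgroup.inf_relIndex_left] at h1
      have h2 : L.relIndex E ≤ L.relIndex M :=
        Subgroup.relIndex_le_of_le_right hEM Subgroup.index_ne_zero_of_finite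
      nlinarith
    obtain ⟨hTA1, hAT1⟩ := hperm u (hEM huE) huL
    have hfixu : ∀ v ∈ E, MulAut.conj u v = v := fun v hv => by
      have := congrArg Subtype.val
        (comm_of_sq (H := E) (fun q => Subtype.ext (hE2 q q.2)) ⟨u, huE⟩ ⟨v, hv⟩)
      simp only [Subgroup.coe_mul] at this
      rw [MulAut.conj_apply, this, mul_inv_cancel_right]
    have h4 : E ⊓ L ≤ A ⊓ T := by
      intro v hv
      rcases hclass (E ⊓ L) inf_le_right (fun e he => hE2 e he.1) with hle | hle
      · refine ⟨?_, hle hv⟩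
        rw [← hTA1]
        exact ⟨v, hle hv, hfixu v hv.1⟩
      · refine ⟨hle hv, ?_⟩
        rw [← hAT1]
        exact ⟨v, hle hv, hfixu v hv.1⟩
    have := (Subgroup.card_le_of_le h4).trans hAT4
    omega
  have hMtop : M = ⊤ := by
    by_contra hne
    obtain ⟨g, hg, hgM⟩ := SetLike.exists_of_lt (hnc M (lt_top_iff_ne_top.2 hne))
    apply hgM
    have hLM : L ≤ M := Subgroup.le_normalizer
    have hmap : ∀ X : Subgroup P, X ≤ L → (∀ x ∈ X, x * x = 1) → Nat.card X = 16 →
        X.map (MulAut.conj g).toMonoidHom ≤ L := fun X hX hX2 hX16 => by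
      refine hbig _ (hconjle M X g hg (hX.trans hLM)) ?_
        (by rw [Subgroup.card_map_of_injective (MulAut.conj g).injective, hX16])
      rintro _ ⟨y, hy, rfl⟩
      rw [← map_mul, hX2 y hy, map_one]
    refine hnorm g L (Subgroup.eq_of_le_of_card_ge ?_
      (by rw [Subgroup.card_map_of_injective (MulAut.conj g).injective]))
    rw [← hsup, Subgroup.map_sup, sup_le_iff, hsup]
    exact ⟨hmap A hAL hA2 hA16, hmap T fr.T_le hT2 h16⟩
  refine sectFour_of_small hP h h16.le ?_ fun _ E hE2 hE32 => ?_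
  · rw [← Subgroup.card_top, ← hMtop, ← hcard (Subgroup.le_normalizer : L ≤ M)]
    calc _ ≤ 64 * 2 := Nat.mul_le_mul hL64 hMidx
      _ = 128 := by norm_num
  · have hEL := hbig E (hMtop ▸ le_top) hE2 (by omega)
    rcases hclass E hEL hE2 with h1 | h1
    · have := Subgroup.card_le_of_le h1; omega
    · have := Subgroup.card_le_of_le h1; omega

end CfsgLib.HarrisRank
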