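import Cfsg.Agent.HarrisRank.Main
import Cfsg.Agent.PGroup.Normal

/-! Harris's lemma: the normalizer of the elementary group `T` of order 16. -/

set_option autoImplicit false

namespace CfsgLib.HarrisRank

variable {P : Type*} [Group P] [Finite P]

/-- Data attached to the normalizer `N` of `T`. -/
structure Frame (T F L : Subgroup P) : Prop where
  F_le : F ≤ T
  card_F : Nat.card F = 4
  L_le : L ≤ Subgroup.normalizer (T : Set P)
  T_le : T ≤ L
  mem_iff : ∀ n ∈ Subgroup.normalizer (T : Set P), n ∈ L ↔ n * n ∈ T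
  fix : ∀ n ∈ L, n ∉ T → T ⊓ Subgroup.centralizer ({n} : Set P) = F
  index_L : T.relIndex L ≤ 4
  index_N : L.relIndex (Subgroup.normalizer (T : Set P)) ≤ 2
  dichotomy : L ≠ Subgroup.normalizer (T : Set P) → T.relIndex L ≤ 2

theorem exists_pow_relIndex (hP : IsPGroup 2 P) (H K : Subgroup P) :
    ∃ k : ℕ, H.relIndex K = 2 ^ k := by
  haveI := Fact.mk Nat.prime_two
  obtain ⟨k, hk⟩ := IsPGroup.iff_card.1 (hP.to_subgroup K)
  obtain ⟨j, -, hj⟩ := (Nat.dvd_prime_pow Nat.prime_two).1 (hk ▸ (H.subgroupOf K).index_dvd_card)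
  exact ⟨j, hj⟩

theorem exists_frame (hP : IsPGroup 2 P) {T B : Subgroup P} (h : Setup T B) (h16 : Nat.card T = 16)
    (hT2 : ∀ v ∈ T, v * v = 1) (hne : T ≠ ⊤) : ∃ F L : Subgroup P, Frame T F L := by
  haveI := Fact.mk Nat.prime_two
  obtain ⟨s₀, hs₀N, hs₀T, hs₀2, hcen⟩ := exists_central_mod hP T hne
  set N := Subgroup.normalizer (T : Set P) with hN
  have hconj : ∀ x ∈ N, ∀ v ∈ T, x * v * x⁻¹ ∈ T := fun x hx v hv =>
    (Subgroup.mem_normalizer_iff.1 hx v).1 hv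
  have hc : ∀ a ∈ T, ∀ b ∈ T, a * b = b * a := fun a ha b hb =>
    congrArg Subtype.val (comm_of_sq (H := T) (fun q => Subtype.ext (hT2 q q.2)) ⟨a, ha⟩ ⟨b, hb⟩)
  have htriv : ∀ u ∈ T, ∀ v ∈ T, u * v * u⁻¹ = v := fun u hu v hv => by
    rw [hc u hu v hv, mul_inv_cancel_right]
  obtain ⟨hF, hFr⟩ := (h.card_fix h.le le_rfl hT2 hs₀T (hconj s₀ hs₀N) hs₀2
    fun v hv u hu => hc u hu v hv).2 h16
  set F := T ⊓ Subgroup.centralizer ({s₀} : Set P) with hFdef
  have hFmem : ∀ v, v ∈ F ↔ v ∈ T ∧ s₀ * v * s₀⁻¹ = v := fun v => by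
    rw [hFdef, Subgroup.mem_inf, Subgroup.mem_centralizer_singleton_iff]
    exact and_congr_right fun _ => ⟨fun e => by rw [← e, mul_inv_cancel_right],
      fun e => by nth_rw 1 [← e]; group⟩
  have hs₀conj : ∀ n ∈ N, ∀ u ∈ T,
      s₀ * (n * u * n⁻¹) * s₀⁻¹ = n * (s₀ * u * s₀⁻¹) * n⁻¹ := fun n hn u hu => by
    calc _ = (s₀ * n * s₀⁻¹ * n⁻¹) * (n * (s₀ * u * s₀⁻¹) * n⁻¹) * (s₀ * n * s₀⁻¹ * n⁻¹)⁻¹ := by
          group
      _ = _ := htriv _ (hcen n hn) _ (hconj n hn _ (hconj s₀ hs₀N u hu))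
  have hFN : ∀ n ∈ N, ∀ f ∈ F, n * f * n⁻¹ ∈ F := fun n hn f hf => by
    obtain ⟨hfT, hfs⟩ := (hFmem f).1 hf
    exact (hFmem _).2 ⟨hconj n hn f hfT, by rw [hs₀conj n hn f hfT, hfs]⟩
  let L := N ⊓ Subgroup.centralizer (F : Set P)
  have hTL : T ≤ L := fun u hu => ⟨Subgroup.le_normalizer hu,
    Subgroup.mem_centralizer_iff.2 fun f hf => (hc u hu f hf.1).symm⟩
  have hfix1 : ∀ n ∈ N, n ∉ T → n * n ∈ T → T ⊓ Subgroup.centralizer ({n} : Set P) = F :=
    fun n hn hnT hn2 => (h.fix_eq h16 hT2 hs₀N hn hs₀T hnT hs₀2 hn2 (hcen n hn)).symm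
  have hLfix : ∀ l ∈ L, ∀ f ∈ F, l * f * l⁻¹ = f := fun l hl f hf => by
    rw [← Subgroup.mem_centralizer_iff.1 hl.2 f hf, mul_inv_cancel_right]
  have hLval : ∀ l ∈ L, ∀ v ∈ T, l * v * l⁻¹ * v ∈ F := fun l hl v hv => by
    have hu := hconj l hl.1 v hv
    refine (hFmem _).2 ⟨mul_mem hu hv, ?_⟩
    have h1 : s₀ * v * s₀⁻¹ * v ∈ F := (hFmem _).2 ⟨mul_mem (hconj _ hs₀N v hv) hv, by
      have e : s₀ * (s₀ * v * s₀⁻¹) * s₀⁻¹ = v := by
        calc _ = s₀ * s₀ * v * (s₀ * s₀)⁻¹ := by group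
          _ = v := htriv _ hs₀2 v hv
      calc _ = s₀ * (s₀ * v * s₀⁻¹) * s₀⁻¹ * (s₀ * v * s₀⁻¹) := by group
        _ = _ := by rw [e, hc v hv _ (hconj _ hs₀N v hv)]⟩
    have h2 : s₀ * (l * v * l⁻¹) * s₀⁻¹ * (l * v * l⁻¹) = s₀ * v * s₀⁻¹ * v := by
      rw [hs₀conj l hl.1 v hv]
      calc _ = l * (s₀ * v * s₀⁻¹ * v) * l⁻¹ := by group
        _ = _ := hLfix l hl _ h1
    have h3 : s₀ * (l * v * l⁻¹) * s₀⁻¹ = s₀ * v * s₀⁻¹ * v * (l * v * l⁻¹) := by
      calc _ = s₀ * (l * v * l⁻¹) * s₀⁻¹ * ((l * v * l⁻¹) * (l * v * l⁻¹)) := by rw [hT2 _ hu, mul_one]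
        _ = _ := by rw [← mul_assoc, h2]
    have hA := hconj _ hs₀N v hv
    calc s₀ * (l * v * l⁻¹ * v) * s₀⁻¹
        = s₀ * (l * v * l⁻¹) * s₀⁻¹ * (s₀ * v * s₀⁻¹) := by group
      _ = (s₀ * v * s₀⁻¹ * v) * ((l * v * l⁻¹) * (s₀ * v * s₀⁻¹)) := by rw [h3, mul_assoc]
      _ = (s₀ * v * s₀⁻¹ * v) * ((s₀ * v * s₀⁻¹) * (l * v * l⁻¹)) := by rw [hc _ hu _ hA]
      _ = (v * (s₀ * v * s₀⁻¹)) * (s₀ * v * s₀⁻¹) * (l * v * l⁻¹) := by
          rw [hc _ hA v hv, ← mul_assoc]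
      _ = l * v * l⁻¹ * v := by rw [mul_assoc v, hT2 _ hA, mul_one, hc v hv _ hu]
  have hmem : ∀ n ∈ N, n ∈ L ↔ n * n ∈ T := fun n hn => by
    constructor
    · intro hl
      apply h.centralizer_T
      refine Subgroup.mem_centralizer_iff.2 fun v hv => ?_
      have hg := hLval n hl v hv
      have e1 : n * v * n⁻¹ = (n * v * n⁻¹ * v) * v := by rw [mul_assoc _ v v, hT2 v hv, mul_one]
      have e : n * n * v * (n * n)⁻¹ = v := by
        calc _ = n * (n * v * n⁻¹) * n⁻¹ := by group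
          _ = (n * (n * v * n⁻¹ * v) * n⁻¹) * (n * v * n⁻¹) := by nth_rw 1 [e1]; group
          _ = v := by
              rw [hLfix n hl _ hg, hc (n * v * n⁻¹) (hconj n hn v hv) v hv,
                mul_assoc v, hT2 _ (hconj n hn v hv), mul_one]
      nth_rw 1 [← e]; group
    · intro h2
      refine ⟨hn, ?_⟩
      by_cases hnT : n ∈ T
      · exact (hTL hnT).2
      · refine Subgroup.mem_centralizer_iff.2 fun f hf => ?_
        rw [← hfix1 n hn hnT h2] at hf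
        exact Subgroup.mem_centralizer_singleton_iff.1 hf.2
  have hfix : ∀ n ∈ L, n ∉ T → T ⊓ Subgroup.centralizer ({n} : Set P) = F :=
    fun n hn hnT => hfix1 n hn.1 hnT ((hmem n hn.1).1 hn)
  -- `L / T` embeds into any subgroup containing the commutators with a fixed element
  have hinj : ∀ w ∈ T, w ∉ F → ∀ R : Subgroup P, (∀ l ∈ L, l * w * l⁻¹ * w ∈ R) →
      T.relIndex L ≤ Nat.card R := fun w hw hwF R hR => by
    let ψ : L → R := fun l => ⟨(l : P) * w * (l : P)⁻¹ * w, hR l l.2⟩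
    have hψ : ∀ a b : L, ψ (a * b) = ψ a * ψ b := fun a b => by
      refine Subtype.ext ?_
      show (a : P) * b * w * ((a : P) * b)⁻¹ * w = ((a : P) * w * (a : P)⁻¹ * w) * ((b : P) * w * (b : P)⁻¹ * w)
      have hg := hLval b b.2 w hw
      have e1 : (b : P) * w * (b : P)⁻¹ = ((b : P) * w * (b : P)⁻¹ * w) * w := by
        rw [mul_assoc _ w w, hT2 w hw, mul_one]
      have hA := mul_mem (hconj a a.2.1 w hw) hw
      calc _ = ((a : P) * ((b : P) * w * (b : P)⁻¹ * w) * (a : P)⁻¹) * ((a : P) * w * (a : P)⁻¹) * w := by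
            calc _ = (a : P) * ((b : P) * w * (b : P)⁻¹) * (a : P)⁻¹ * w := by group
              _ = _ := by nth_rw 1 [e1]; group
        _ = _ := by rw [hLfix a a.2 _ hg, mul_assoc, hc _ hg.1 _ hA]
    have hker : (MonoidHom.mk' ψ hψ).ker ≤ T.subgroupOf L := fun l hl => by
      rw [Subgroup.mem_subgroupOf]
      by_contra hlT
      apply hwF
      rw [← hfix l l.2 hlT]
      have e : (l : P) * w * (l : P)⁻¹ * w = 1 := congrArg Subtype.val (MonoidHom.mem_ker.1 hl)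
      rw [mul_eq_one_iff_eq_inv, inv_eq_of_mul_eq_one_right (hT2 w hw), mul_inv_eq_iff_eq_mul] at e
      exact ⟨hw, Subgroup.mem_centralizer_singleton_iff.2 e.symm⟩
    calc T.relIndex L ≤ (MonoidHom.mk' ψ hψ).ker.index :=
          Nat.le_of_dvd (Nat.pos_of_ne_zero Subgroup.index_ne_zero_of_finite)
            (Subgroup.index_dvd_of_le hker)
      _ = Nat.card (MonoidHom.mk' ψ hψ).range := Subgroup.index_ker _
      _ ≤ Nat.card R := Subgroup.card_le_card_group _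
  obtain ⟨v₀, hv₀, hv₀F⟩ : ∃ v ∈ T, v ∉ F := by
    by_contra hall
    push Not at hall
    have := Subgroup.card_le_of_le hall
    omega
  have h4 : T.relIndex L ≤ 4 :=
    hF ▸ hinj v₀ hv₀ hv₀F F (fun l hl => hLval l hl v₀ hv₀)
  -- a nontrivial element of `F` fixed by the normalizer
  obtain ⟨f₁, hf₁F, hf₁1, hf₁⟩ : ∃ f ∈ F, f ≠ 1 ∧ ∀ n ∈ N, n * f * n⁻¹ = f := by
    haveI : (F.subgroupOf N).Normal := ⟨fun f hf g => by
      rw [Subgroup.mem_subgroupOf] at hf ⊢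
      exact hFN g g.2 f hf⟩
    have hFN' : F ≤ N := (inf_le_left : F ≤ T).trans Subgroup.le_normalizer
    have hb : F.subgroupOf N ≠ ⊥ := fun e => by
      have := Nat.card_congr (Subgroup.subgroupOfEquivOfLe hFN').toEquiv
      rw [e, Subgroup.card_bot, hF] at this
      omega
    obtain ⟨z, hz, hz1⟩ := Subgroup.bot_or_exists_ne_one _ |>.resolve_left
      (CfsgLib.PGroup.inf_center_ne_bot (hP.to_subgroup N) _ hb)
    refine ⟨z, Subgroup.mem_subgroupOf.1 hz.1, fun e => hz1 (Subtype.ext e), fun n hn => ?_⟩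
    have e : n * (z : P) = z * n := congrArg Subtype.val (Subgroup.mem_center_iff.1 hz.2 ⟨n, hn⟩)
    rw [e, mul_inv_cancel_right]
  have hF2 : ∀ f : F, f * f = 1 := fun f => Subtype.ext (hT2 f f.2.1)
  have hN2 : L.relIndex N ≤ 2 := by
    obtain ⟨f₂, hf₂F, hf₂1, hf₂⟩ : ∃ f ∈ F, f ≠ 1 ∧ f ≠ f₁ := by
      by_contra hall
      push Not at hall
      have h2 : (Set.univ : Set F) ⊆ {1, ⟨f₁, hf₁F⟩} := fun f _ => by
        by_cases e : (f : P) = 1
        · exact Or.inl (Subtype.ext e)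
        · exact Or.inr (Subtype.ext (hall f f.2 e))
      have := (Set.ncard_le_ncard h2).trans ((Set.ncard_insert_le _ _).trans (by rw [Set.ncard_singleton]))
      rw [Set.ncard_univ, hF] at this
      omega
    have hmove : ∀ n ∈ N, n ∉ L → n * f₂ * n⁻¹ = f₁ * f₂ := fun n hn hnL => by
      have hm := hFN n hn f₂ hf₂F
      rcases four_elems (by rw [hF]) hF2 (a := (⟨f₁, hf₁F⟩ : F)) (b := ⟨f₂, hf₂F⟩)
          (fun e => hf₁1 (congrArg Subtype.val e)) (fun e => hf₂1 (congrArg Subtype.val e))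
          (fun e => hf₂ (congrArg Subtype.val e).symm) ⟨_, hm⟩ with e | e | e | e
      · exact absurd (conj_eq_one_iff.1 (congrArg Subtype.val e)) hf₂1
      · exfalso
        have e' : n * f₂ * n⁻¹ = n * f₁ * n⁻¹ := (congrArg Subtype.val e).trans (hf₁ n hn).symm
        exact hf₂ (mul_left_cancel (mul_right_cancel e'))
      · exfalso
        apply hnL
        refine ⟨hn, Subgroup.mem_centralizer_iff.2 fun f hf => ?_⟩
        have e1 := hf₁ n hn
        have e2 : n * f₂ * n⁻¹ = f₂ := congrArg Subtype.val e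
        have key : n * f * n⁻¹ = f := by
          rcases four_elems (by rw [hF]) hF2 (a := (⟨f₁, hf₁F⟩ : F)) (b := ⟨f₂, hf₂F⟩)
              (fun e => hf₁1 (congrArg Subtype.val e)) (fun e => hf₂1 (congrArg Subtype.val e))
              (fun e => hf₂ (congrArg Subtype.val e).symm) ⟨f, hf⟩ with e3 | e3 | e3 | e3 <;>
            have e4 : f = _ := congrArg Subtype.val e3 <;> subst e4
          · simp
          · exact e1
          · exact e2
          · show n * (f₁ * f₂) * n⁻¹ = f₁ * f₂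
            calc _ = (n * f₁ * n⁻¹) * (n * f₂ * n⁻¹) := by group
              _ = _ := by rw [e1, e2]
        nth_rw 1 [← key]; group
      · exact congrArg Subtype.val e
    by_contra h3
    obtain ⟨a, b, hab, haL, hbL⟩ : ∃ a b : N, a⁻¹ * b ∉ L.subgroupOf N ∧ (a : P) ∉ L ∧ (b : P) ∉ L := by
      have hcard : 2 < Nat.card (↥N ⧸ L.subgroupOf N) := not_le.1 h3
      haveI := Fintype.ofFinite (↥N ⧸ L.subgroupOf N)
      rw [Nat.card_eq_fintype_card] at hcard
      classical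
      have : 1 < ((Finset.univ : Finset (↥N ⧸ L.subgroupOf N)).erase ((1 : N) : ↥N ⧸ L.subgroupOf N)).card := by
        rw [Finset.card_erase_of_mem (Finset.mem_univ _), Finset.card_univ]; omega
      obtain ⟨x, hx, y, hy, hxy⟩ := Finset.one_lt_card.1 this
      obtain ⟨a, rfl⟩ := QuotientGroup.mk_surjective x
      obtain ⟨b, rfl⟩ := QuotientGroup.mk_surjective y
      refine ⟨a, b, fun e => hxy (QuotientGroup.eq.2 e), fun e => Finset.ne_of_mem_erase hx ?_,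
        fun e => Finset.ne_of_mem_erase hy ?_⟩ <;>
      · refine (QuotientGroup.eq.2 ?_).symm
        simpa [Subgroup.mem_subgroupOf] using e
    apply hab
    rw [Subgroup.mem_subgroupOf]
    by_contra hc2
    have e1 := hmove _ (mul_mem (inv_mem a.2) b.2) hc2
    have e2 := hmove _ a.2 haL
    have e3 := hmove _ b.2 hbL
    apply hf₁1
    have : (a : P)⁻¹ * b * f₂ * ((a : P)⁻¹ * b)⁻¹ = f₂ := by
      calc _ = (a : P)⁻¹ * ((b : P) * f₂ * (b : P)⁻¹) * a := by group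
        _ = (a : P)⁻¹ * ((a : P) * f₂ * (a : P)⁻¹) * a := by rw [e3, e2]
        _ = f₂ := by group
    rw [this] at e1
    exact mul_eq_right.1 e1.symm
  refine ⟨F, L, inf_le_left, hF, inf_le_left, hTL, hmem, hfix, h4, hN2, fun hLN => ?_⟩
  obtain ⟨s, hsN, hsL⟩ := SetLike.exists_of_lt (lt_of_le_of_ne (inf_le_left : L ≤ N) hLN)
  by_contra h2
  obtain ⟨k, hk⟩ := exists_pow_relIndex hP T L
  have hk4 : T.relIndex L = 4 := by
    rcases k with _ | _ | _ | k
    · rw [hk] at h2; norm_num at h2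
    · rw [hk] at h2; norm_num at h2
    · rw [hk]; norm_num
    · rw [hk, pow_succ, pow_succ, pow_succ] at h4
      have := Nat.one_le_two_pow (n := k)
      omega
  -- `s` commutes with `L` modulo `T`
  haveI : (T.subgroupOf N).Normal := Subgroup.normal_in_normalizer
  have hLconj : ∀ n ∈ N, ∀ l ∈ L, n * l * n⁻¹ ∈ L := fun n hn l hl => by
    refine (hmem _ (mul_mem (mul_mem hn hl.1) (inv_mem hn))).2 ?_
    rw [show n * l * n⁻¹ * (n * l * n⁻¹) = n * (l * l) * n⁻¹ by group]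
    exact hconj n hn _ ((hmem l hl.1).1 hl)
  have hcomm : ∀ l ∈ L, s * l * s⁻¹ * l⁻¹ ∈ T := fun l hl => by
    by_contra hd
    have hss : s * s ∈ L := by
      have hpos : (L.subgroupOf N).index ≠ 0 := Subgroup.index_ne_zero_of_finite
      rcases Nat.lt_or_ge (L.subgroupOf N).index 2 with h' | h'
      · exact absurd (Subgroup.relIndex_eq_one.1 (show (L.subgroupOf N).index = 1 by omega) hsN) hsL
      · have hi : (L.subgroupOf N).index = 2 := le_antisymm hN2 h'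
        exact Subgroup.mem_subgroupOf.1 (Subgroup.mul_self_mem_of_index_two hi ⟨s, hsN⟩)
    let Q := ↥N ⧸ T.subgroupOf N
    let ι : L →* Q := (QuotientGroup.mk' (T.subgroupOf N)).comp (Subgroup.inclusion inf_le_left)
    have hιker : ι.ker = T.subgroupOf L := by
      ext x
      rw [MonoidHom.mem_ker]
      exact (QuotientGroup.eq_one_iff _).trans Iff.rfl
    have hR4 : Nat.card ι.range = 4 := by rw [← Subgroup.index_ker, hιker]; exact hk4
    have hR2 : ∀ x : ι.range, x * x = 1 := by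
      rintro ⟨_, x, rfl⟩
      refine Subtype.ext ?_
      show ι x * ι x = 1
      rw [← map_mul, ← MonoidHom.mem_ker, hιker]
      exact (hmem _ x.2.1).1 x.2
    have hR2' : ∀ x ∈ ι.range, x * x = 1 := fun x hx => congrArg Subtype.val (hR2 ⟨x, hx⟩)
    have hRc : ∀ x ∈ ι.range, ∀ y ∈ ι.range, x * y = y * x := fun x hx y hy =>
      congrArg Subtype.val (comm_of_sq hR2 ⟨x, hx⟩ ⟨y, hy⟩)
    let sN : N := ⟨s, hsN⟩
    let lN : N := ⟨l, hl.1⟩
    let σ : Q := (sN : Q)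
    let lq : Q := (lN : Q)
    have hone : ∀ x : N, (x : Q) = 1 → (x : P) ∈ T := fun x e =>
      Subgroup.mem_subgroupOf.1 ((QuotientGroup.eq_one_iff x).1 e)
    have hl' : lq ∈ ι.range := ⟨⟨l, hl⟩, rfl⟩
    have hk' : σ * σ ∈ ι.range := ⟨⟨s * s, hss⟩, rfl⟩
    have hd' : σ * lq * σ⁻¹ * lq⁻¹ ∈ ι.range :=
      ⟨⟨_, mul_mem (hLconj s hsN l hl) (inv_mem hl)⟩, rfl⟩
    set d := σ * lq * σ⁻¹ * lq⁻¹ with hddef
    have hd1 : d ≠ 1 := fun e => hd (hone (sN * lN * sN⁻¹ * lN⁻¹) e)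
    have hk1 : σ * σ ≠ 1 := fun e => hsL ((hmem s hsN).2 (hone (sN * sN) e))
    have hsd : σ * d * σ⁻¹ = d := by
      have e1 : σ * σ * lq * (σ * σ)⁻¹ = lq := by rw [hRc _ hk' _ hl', mul_inv_cancel_right]
      have e2 : σ * lq * σ⁻¹ = d * lq := by rw [hddef, inv_mul_cancel_right]
      calc _ = (σ * σ * lq * (σ * σ)⁻¹) * (σ * lq * σ⁻¹)⁻¹ := by rw [hddef]; group
        _ = d⁻¹ := by rw [e1, e2]; group
        _ = d := inv_eq_of_mul_eq_one_right (hR2' d hd')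
    by_cases hdk : d = σ * σ
    · apply hsL
      have e : (σ * lq) * (σ * lq) = 1 := by
        calc _ = d * lq * (σ * σ) * lq := by rw [hddef]; group
          _ = d * (σ * σ) * (lq * lq) := by rw [mul_assoc d, hRc _ hl' _ hk']; group
          _ = 1 := by rw [hR2' _ hl', hdk, hR2' _ hk', one_mul]
      have hslL : s * l ∈ L :=
        (hmem _ (mul_mem hsN hl.1)).2 (hone (sN * lN * (sN * lN)) e)
      have := mul_mem hslL (inv_mem hl)
      rwa [mul_inv_cancel_right] at this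
    · apply hd1
      have hsk : σ * (σ * σ) * σ⁻¹ = σ * σ := by group
      have hlfix : σ * lq * σ⁻¹ = lq := by
        rcases four_elems hR4 hR2 (a := (⟨d, hd'⟩ : ι.range)) (b := ⟨σ * σ, hk'⟩)
            (fun e => hd1 (congrArg Subtype.val e)) (fun e => hk1 (congrArg Subtype.val e))
            (fun e => hdk (congrArg Subtype.val e)) ⟨lq, hl'⟩ with e | e | e | e <;>
          have e' : lq = _ := congrArg Subtype.val e <;> rw [e']
        · simp
        · exact hsd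
        · exact hsk
        · calc _ = (σ * d * σ⁻¹) * (σ * (σ * σ) * σ⁻¹) := by simp only [Subgroup.coe_mul]; group
            _ = _ := by rw [hsd, hsk]; rfl
      rw [hddef, hlfix, mul_inv_cancel]
  obtain ⟨v, hv, hvF⟩ : ∃ v ∈ T, s * v * s⁻¹ * v ∉ F := by
    by_contra hall
    push Not at hall
    apply hsL
    refine ⟨hsN, Subgroup.mem_centralizer_iff.2 fun f hf => ?_⟩
    obtain ⟨v, hv, rfl⟩ := hFr f hf
    obtain ⟨-, hgs⟩ := (hFmem _).1 (hall v hv)
    have hA := hconj _ hs₀N v hv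
    have hB := hconj _ hsN v hv
    have e1 : s₀ * (s * v * s⁻¹) * s₀⁻¹ = (s * v * s⁻¹ * v) * (s₀ * v * s₀⁻¹) := by
      calc _ = (s₀ * (s * v * s⁻¹ * v) * s₀⁻¹) * (s₀ * v * s₀⁻¹)⁻¹ := by group
        _ = _ := by rw [hgs, inv_eq_of_mul_eq_one_right (hT2 _ hA)]
    have key : s * (s₀ * v * s₀⁻¹ * v) * s⁻¹ = s₀ * v * s₀⁻¹ * v := by
      calc _ = s * (s₀ * v * s₀⁻¹) * s⁻¹ * (s * v * s⁻¹) := by group
        _ = (s * v * s⁻¹ * v) * (s₀ * v * s₀⁻¹) * (s * v * s⁻¹) := by rw [← hs₀conj s hsN v hv, e1]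
        _ = _ := by
            rw [hc _ (mul_mem hB hv) _ hA, hc _ hB v hv, mul_assoc, mul_assoc v, hT2 _ hB, mul_one]
    nth_rw 1 [← key]; group
  have hR := hinj _ (mul_mem (hconj s hsN v hv) hv) hvF
  let φ : F →* F := MonoidHom.mk' (fun g => ⟨s * g * s⁻¹ * g, mul_mem (hFN s hsN g g.2) g.2⟩)
    fun a b => by
      refine Subtype.ext ?_
      show s * (↑a * ↑b) * s⁻¹ * (↑a * ↑b) = (s * ↑a * s⁻¹ * ↑a) * (s * ↑b * s⁻¹ * ↑b)
      calc _ = s * ↑a * s⁻¹ * ((s * ↑b * s⁻¹) * ↑a) * ↑b := by group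
        _ = _ := by rw [hc _ (hFN s hsN b b.2).1 a a.2.1]; group
  have hφ2 : Nat.card φ.range ≤ 2 := by
    have h1 : φ.ker ≠ ⊥ := fun e => hf₁1 (by
      have : (⟨f₁, hf₁F⟩ : F) ∈ φ.ker := MonoidHom.mem_ker.2 (Subtype.ext (by
        show s * f₁ * s⁻¹ * f₁ = 1
        rw [hf₁ s hsN, hT2 _ hf₁F.1]))
      rw [e, Subgroup.mem_bot] at this
      exact congrArg Subtype.val this)
    have h2' := φ.ker.card_mul_index
    rw [Subgroup.index_ker, hF] at h2'
    have := Subgroup.one_lt_card_iff_ne_bot φ.ker |>.2 h1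
    nlinarith
  have := hR (φ.range.map F.subtype) fun l hl => by
    refine ⟨_, ⟨⟨_, hLval l hl v hv⟩, rfl⟩, ?_⟩
    show s * (l * v * l⁻¹ * v) * s⁻¹ * (l * v * l⁻¹ * v) = l * (s * v * s⁻¹ * v) * l⁻¹ * (s * v * s⁻¹ * v)
    have hB := hconj _ hsN v hv
    have hC := hconj _ hl.1 v hv
    have e1 : l * (s * v * s⁻¹) * l⁻¹ = s * (l * v * l⁻¹) * s⁻¹ := by
      calc _ = (s * l * s⁻¹ * l⁻¹)⁻¹ * (s * (l * v * l⁻¹) * s⁻¹) * (s * l * s⁻¹ * l⁻¹) := by group
        _ = _ := by rw [mul_assoc, hc _ (hconj s hsN _ hC) _ (hcomm l hl), inv_mul_cancel_left]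
    calc _ = (s * (l * v * l⁻¹) * s⁻¹) * ((s * v * s⁻¹) * (l * v * l⁻¹)) * v := by group
      _ = (s * (l * v * l⁻¹) * s⁻¹) * (l * v * l⁻¹) * ((s * v * s⁻¹) * v) := by
          rw [hc _ hB _ hC]; group
      _ = _ := by rw [← e1]; group
  rw [Subgroup.card_map_of_injective F.subtype_injective] at this
  omega

end CfsgLib.HarrisRank
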