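import Cfsg.Agent.HarrisRank.Basic

/-! Harris's lemma: the structure of the 2-group. -/

set_option autoImplicit false

namespace CfsgLib.HarrisRank

variable {P : Type*} [Group P] [Finite P]

/-- `B` is a four-group inside `T` and every involution of `B` has centralizer `T`. -/
structure Setup (T B : Subgroup P) : Prop where
  le : B ≤ T
  card_B : Nat.card B = 4
  sq_B : ∀ b ∈ B, b * b = 1
  cent : ∀ b ∈ B, b ≠ 1 → Subgroup.centralizer ({b} : Set P) = T

namespace Setup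

variable {T B : Subgroup P}

/-- Any subgroup large enough to meet `B` contains an element with small centralizer. -/
theorem exists_b (h : Setup T B) {Z H : Subgroup P} (hBZ : B ≤ Z)
    (hlt : H.relIndex Z < 4) : ∃ b ∈ B, b ∈ H ∧ b ≠ 1 := by
  by_contra hc
  push Not at hc
  have h1 : H ⊓ B = ⊥ := by
    rw [eq_bot_iff]
    intro b hb
    exact Subgroup.mem_bot.2 (hc b hb.2 hb.1)
  have h2 : H.relIndex B ≤ H.relIndex Z :=
    Subgroup.relIndex_le_of_le_right hBZ ((Subgroup.index_ne_zero_of_finite))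
  rw [← Subgroup.inf_relIndex_right, h1, Subgroup.relIndex_bot_left, h.card_B] at h2
  omega

theorem centralizer_T (h : Setup T B) : Subgroup.centralizer (T : Set P) ≤ T := by
  obtain ⟨b, hb, -, hb1⟩ := h.exists_b (Z := B) (H := B) le_rfl (by simp)
  calc Subgroup.centralizer (T : Set P) ≤ Subgroup.centralizer ({b} : Set P) :=
      Subgroup.centralizer_le (Set.singleton_subset_iff.2 (h.le hb))
    _ = T := h.cent b hb hb1

/-- The fixed points of an outside element on an elementary group containing `B` avoid `B`. -/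
theorem card_fix (h : Setup T B) {Z : Subgroup P} (hBZ : B ≤ Z) (hZT : Z ≤ T)
    (hZ : ∀ v ∈ Z, v * v = 1) {t : P} (ht : t ∉ T) (htZ : ∀ v ∈ Z, t * v * t⁻¹ ∈ Z)
    (ht2 : t * t ∈ T) (hcomm : ∀ v ∈ Z, ∀ u ∈ T, u * v = v * u) :
    16 ≤ Nat.card Z ∧
      (Nat.card Z = 16 → Nat.card ↥(Z ⊓ Subgroup.centralizer ({t} : Set P)) = 4 ∧
        ∀ f ∈ Z ⊓ Subgroup.centralizer ({t} : Set P), ∃ v ∈ Z, t * v * t⁻¹ * v = f) := by
  obtain ⟨φ, hφ, hker, hrange⟩ := fix_bounds Z hZ t htZ fun v hv => hcomm v hv _ ht2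
  let F := Z ⊓ Subgroup.centralizer ({t} : Set P)
  have hc : Nat.card φ.ker = Nat.card F := by
    rw [hker]; exact Nat.card_congr (Subgroup.subgroupOfEquivOfLe inf_le_left).toEquiv
  have h4 : 4 ≤ F.relIndex Z := by
    by_contra hlt
    obtain ⟨b, hb, hbF, hb1⟩ := h.exists_b hBZ (not_le.1 hlt)
    apply ht
    rw [← h.cent b hb hb1, Subgroup.mem_centralizer_singleton_iff]
    exact (Subgroup.mem_centralizer_singleton_iff.1 hbF.2).symm
  have h1 : Nat.card F * F.relIndex Z = Nat.card Z := by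
    rw [← Subgroup.relIndex_bot_left, ← Subgroup.relIndex_bot_left]
    exact Subgroup.relIndex_mul_relIndex _ _ _ bot_le inf_le_left
  have h2 : Nat.card φ.ker * φ.ker.index = Nat.card Z := φ.ker.card_mul_index
  rw [Subgroup.index_ker] at h2
  have h3 : Nat.card φ.range ≤ Nat.card φ.ker := Subgroup.card_le_of_le hrange
  have h5 : 4 ≤ Nat.card F := by
    have : Nat.card F * 4 ≤ Nat.card F * Nat.card F := by
      calc _ ≤ Nat.card F * F.relIndex Z := Nat.mul_le_mul_left _ h4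
        _ = Nat.card φ.ker * Nat.card φ.range := by rw [h1, h2]
        _ ≤ _ := by rw [hc] at h3 ⊢; exact Nat.mul_le_mul_left _ h3
    exact Nat.le_of_mul_le_mul_left this Nat.card_pos
  refine ⟨by nlinarith, fun h16 => ?_⟩
  have h6 : Nat.card F = 4 := by nlinarith
  refine ⟨h6, fun f hf => ?_⟩
  rw [hc, h6, h16] at h2
  have h7 : φ.range = φ.ker :=
    Subgroup.eq_of_le_of_card_ge hrange (by rw [hc, h6]; omega)
  have hfk : (⟨f, hf.1⟩ : Z) ∈ φ.ker := by rw [hker]; exact hf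
  rw [← h7] at hfk
  obtain ⟨v, hv⟩ := hfk
  exact ⟨v, v.2, by rw [← hφ v, hv]⟩

/-- Outside elements which commute modulo `T` have the same fixed points. -/
theorem fix_eq (h : Setup T B) (h16 : Nat.card T = 16) (hT2 : ∀ v ∈ T, v * v = 1)
    {s t : P} (hsN : s ∈ Subgroup.normalizer (T : Set P)) (htN : t ∈ Subgroup.normalizer (T : Set P))
    (hs : s ∉ T) (ht : t ∉ T) (hs2 : s * s ∈ T) (ht2 : t * t ∈ T) (hst : s * t * s⁻¹ * t⁻¹ ∈ T) :
    T ⊓ Subgroup.centralizer ({s} : Set P) = T ⊓ Subgroup.centralizer ({t} : Set P) := by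
  have hc : ∀ a ∈ T, ∀ b ∈ T, a * b = b * a := fun a ha b hb =>
    congrArg Subtype.val (comm_of_sq (H := T) (fun q => Subtype.ext (hT2 q q.2)) ⟨a, ha⟩ ⟨b, hb⟩)
  have hconj : ∀ x ∈ Subgroup.normalizer (T : Set P), ∀ v ∈ T, x * v * x⁻¹ ∈ T := fun x hx v hv =>
    (Subgroup.mem_normalizer_iff.1 hx v).1 hv
  have hcs : ∀ v ∈ T, ∀ u ∈ T, u * v = v * u := fun v hv u hu => hc u hu v hv
  obtain ⟨hF, hFr⟩ := (h.card_fix h.le le_rfl hT2 hs (hconj s hsN) hs2 hcs).2 h16
  obtain ⟨hC, hCr⟩ := (h.card_fix h.le le_rfl hT2 ht (hconj t htN) ht2 hcs).2 h16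
  set F := T ⊓ Subgroup.centralizer ({s} : Set P) with hFdef
  set C := T ⊓ Subgroup.centralizer ({t} : Set P) with hCdef
  let σ : P → P := fun v => s * v * s⁻¹
  let τ : P → P := fun v => t * v * t⁻¹
  have hσ : ∀ v, v ∈ F ↔ v ∈ T ∧ σ v = v := fun v => by
    rw [hFdef, Subgroup.mem_inf, Subgroup.mem_centralizer_singleton_iff]
    exact and_congr_right fun _ => ⟨fun e => by simp only [σ]; rw [← e, mul_inv_cancel_right],
      fun e => by simp only [σ] at e; nth_rw 1 [← e]; group⟩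
  have hτ : ∀ v, v ∈ C ↔ v ∈ T ∧ τ v = v := fun v => by
    rw [hCdef, Subgroup.mem_inf, Subgroup.mem_centralizer_singleton_iff]
    exact and_congr_right fun _ => ⟨fun e => by simp only [τ]; rw [← e, mul_inv_cancel_right],
      fun e => by simp only [τ] at e; nth_rw 1 [← e]; group⟩
  have hστ : ∀ v ∈ T, σ (τ v) = τ (σ v) := fun v hv => by
    have h1 := hc _ hst (t * s * v * (t * s)⁻¹)
      (hconj _ (mul_mem htN hsN) v hv)
    calc σ (τ v) = (s * t * s⁻¹ * t⁻¹) * (t * s * v * (t * s)⁻¹) * (s * t * s⁻¹ * t⁻¹)⁻¹ := by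
          simp only [σ, τ]; group
      _ = _ := by rw [h1, mul_inv_cancel_right]; simp only [σ, τ]; group
  by_contra hne
  have hinf : Nat.card ↥(F ⊓ C) < 4 := by
    by_contra hge
    have e1 := Subgroup.eq_of_le_of_card_ge (inf_le_left : F ⊓ C ≤ F) (by omega)
    have e2 := Subgroup.eq_of_le_of_card_ge (inf_le_right : F ⊓ C ≤ C) (by omega)
    exact hne (e1.symm.trans e2)
  have hinf2 : ∀ a ∈ F ⊓ C, ∀ b ∈ F ⊓ C, a ≠ 1 → b ≠ 1 → a = b := by
    intro a ha b hb ha1 hb1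
    have hd : Nat.card ↥(F ⊓ C) ≤ 2 := by
      have hd1 := Subgroup.card_dvd_of_le (inf_le_left : F ⊓ C ≤ F)
      rw [hF] at hd1
      have : Nat.card ↥(F ⊓ C) ≠ 3 := fun h3 => by rw [h3] at hd1; norm_num at hd1
      omega
    by_contra hab
    have hfc : ({1, ⟨a, ha⟩, ⟨b, hb⟩} : Set ↥(F ⊓ C)).ncard = 3 := by
      rw [Set.ncard_eq_three]
      exact ⟨1, ⟨a, ha⟩, ⟨b, hb⟩, fun e => ha1 (congrArg Subtype.val e).symm,
        fun e => hb1 (congrArg Subtype.val e).symm, fun e => hab (congrArg Subtype.val e), rfl⟩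
    have := Set.ncard_le_card ({1, ⟨a, ha⟩, ⟨b, hb⟩} : Set ↥(F ⊓ C))
    omega
  -- `F ⊔ C` is large, so it meets `B`
  have hU : 4 * 4 ≤ Nat.card ↥(F ⊔ C) * 2 := by
    have h1 : (F.relIndex C) * Nat.card ↥(F ⊓ C) = 4 := by
      rw [← Subgroup.inf_relIndex_right, mul_comm, ← Subgroup.relIndex_bot_left, ← hC,
        ← Subgroup.relIndex_bot_left]
      exact Subgroup.relIndex_mul_relIndex _ _ _ bot_le inf_le_right
    have h2 : F.relIndex C ≤ F.relIndex (F ⊔ C) :=
      Subgroup.relIndex_le_of_le_right le_sup_right (Subgroup.index_ne_zero_of_finite)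
    have h3 : Nat.card F * F.relIndex (F ⊔ C) = Nat.card ↥(F ⊔ C) := by
      rw [← Subgroup.relIndex_bot_left, ← Subgroup.relIndex_bot_left]
      exact Subgroup.relIndex_mul_relIndex _ _ _ bot_le le_sup_left
    have h4 : Nat.card ↥(F ⊓ C) ≤ 2 := by
      have hd1 := Subgroup.card_dvd_of_le (inf_le_left : F ⊓ C ≤ F)
      rw [hF] at hd1
      have : Nat.card ↥(F ⊓ C) ≠ 3 := fun e => by rw [e] at hd1; norm_num at hd1
      omega
    rw [hF] at h3
    nlinarith [Nat.card_pos (α := ↥(F ⊓ C))]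
  obtain ⟨b, hb, hbU, hb1⟩ := h.exists_b h.le (H := F ⊔ C) (by
    have : Nat.card ↥(F ⊔ C) * (F ⊔ C).relIndex T = 16 := by
      rw [← h16, ← Subgroup.relIndex_bot_left, ← Subgroup.relIndex_bot_left]
      exact Subgroup.relIndex_mul_relIndex _ _ _ bot_le (sup_le inf_le_left inf_le_left)
    nlinarith)
  have hFC : F ≤ Subgroup.normalizer (C : Set P) := fun x hx => by
    refine Subgroup.mem_normalizer_iff.2 fun n => ?_
    have hfix : ∀ w ∈ T, x * w * x⁻¹ = w := fun w hw => by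
      rw [hc x ((hσ x).1 hx).1 w hw, mul_inv_cancel_right]
    refine ⟨fun hn => (hfix n hn.1).symm ▸ hn, fun hn => ?_⟩
    have e := hfix _ hn.1
    simp only [mul_left_inj, mul_right_inj] at e
    exact e ▸ hn
  obtain ⟨f, hf, c, hcc, rfl⟩ : ∃ f ∈ F, ∃ c ∈ C, f * c = b := by
    have := Subgroup.coe_mul_of_left_le_normalizer_right F C hFC
    rw [← SetLike.mem_coe, this] at hbU
    exact hbU
  have hbT : f * c ∈ T := h.le hb
  have hnotb : ∀ u, u ∉ T → u * (f * c) * u⁻¹ ≠ f * c := fun u hu e => hu (by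
    rw [← h.cent _ hb hb1, Subgroup.mem_centralizer_singleton_iff]
    nth_rw 2 [← e]; group)
  have hσmul : ∀ a b, σ (a * b) = σ a * σ b := fun a b => by simp only [σ]; group
  have hτmul : ∀ a b, τ (a * b) = τ a * τ b := fun a b => by simp only [τ]; group
  obtain ⟨hfT, hfs⟩ := (hσ f).1 hf
  obtain ⟨hcT, hct⟩ := (hτ c).1 hcc
  have hσc : σ c ∈ T := hconj s hsN c hcT
  have hτf : τ f ∈ T := hconj t htN f hfT
  have hstT : s * t ∉ T → False := fun hu => hnotb _ hu (by
    have e1 : σ c * c ∈ F ⊓ C := by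
      refine ⟨(hσ _).2 ⟨mul_mem hσc hcT, ?_⟩, (hτ _).2 ⟨mul_mem hσc hcT, ?_⟩⟩
      · have : σ (σ c) = c := by
          calc _ = s * s * c * (s * s)⁻¹ := by simp only [σ]; group
            _ = _ := by rw [hc _ hs2 c hcT, mul_inv_cancel_right]
        rw [hσmul, this, hc c hcT _ hσc]
      · rw [hτmul, ← hστ c hcT, hct]
    have e2 : τ f * f ∈ F ⊓ C := by
      refine ⟨(hσ _).2 ⟨mul_mem hτf hfT, ?_⟩, (hτ _).2 ⟨mul_mem hτf hfT, ?_⟩⟩
      · rw [hσmul, hστ f hfT, hfs]
      · have : τ (τ f) = f := by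
          calc _ = t * t * f * (t * t)⁻¹ := by simp only [τ]; group
            _ = _ := by rw [hc _ ht2 f hfT, mul_inv_cancel_right]
        rw [hτmul, this, hc f hfT _ hτf]
    have n1 : σ c * c ≠ 1 := fun e => hnotb s hs (by
      change σ (f * c) = f * c
      rw [hσmul, hfs, mul_eq_one_iff_eq_inv.1 e, inv_eq_of_mul_eq_one_right (hT2 c hcT)])
    have n2 : τ f * f ≠ 1 := fun e => hnotb t ht (by
      change τ (f * c) = f * c
      rw [hτmul, hct, mul_eq_one_iff_eq_inv.1 e, inv_eq_of_mul_eq_one_right (hT2 f hfT)])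
    have e3 := hinf2 _ e1 _ e2 n1 n2
    have e4 : σ c = τ f * f * c := by rw [← e3, mul_assoc, hT2 c hcT, mul_one]
    have e5 : σ (τ f) = τ f := by rw [hστ f hfT, hfs]
    calc s * t * (f * c) * (s * t)⁻¹ = σ (τ (f * c)) := by simp only [σ, τ]; group
      _ = τ f * (τ f * f * c) := by rw [hτmul, hct, hσmul, e5, e4]
      _ = f * c := by rw [← mul_assoc, ← mul_assoc, hT2 _ hτf, one_mul])
  apply hne
  have hu : s * t ∈ T := not_not.1 hstT
  have hsv : ∀ v ∈ T, σ (τ v) = v := fun v hv => by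
    calc _ = (s * t) * v * (s * t)⁻¹ := by simp only [σ, τ]; group
      _ = v := by rw [hc _ hu v hv, mul_inv_cancel_right]
  ext v
  rw [hσ, hτ]
  refine and_congr_right fun hv => ⟨fun e => ?_, fun e => ?_⟩
  · have := hsv v hv
    rw [hστ v hv, e] at this
    exact this
  · have := hsv v hv
    rw [e] at this
    exact this

end Setup

end CfsgLib.HarrisRank
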